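import Mathlib
import Cfsg.Prelude.Def_OddOrderChar
import Cfsg.Agent.Lib.Helper20.CharOrth
import Cfsg.Agent.Lib.Helper19.IndFun2

set_option autoImplicit false

namespace Cfsg.Agent.Lib.Helper32

open Cfsg
open scoped ComplexConjugate

section
variable {G : Type*} [Group G] {W₁ W₂ : Subgroup G}

theorem cti_alpha_zero (φ ψ : ↥(W₁ ⊔ W₂) →* ℂˣ)
    (hφ : ∀ w : ↥(W₁ ⊔ W₂), (w : G) ∈ W₂ → φ w = 1)
    (hψ : ∀ w : ↥(W₁ ⊔ W₂), (w : G) ∈ W₁ → ψ w = 1)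
    (w : ↥(W₁ ⊔ W₂)) (hw : (w : G) ∈ W₁ ∨ (w : G) ∈ W₂) :
    (1 - (φ w : ℂ) - (ψ w : ℂ) + (φ w : ℂ) * (ψ w : ℂ)) = 0 := by
  rcases hw with h | h
  · rw [hψ w h]; simp
  · rw [hφ w h]; simp

theorem cti_additive [Fintype G] (χ : (↥(W₁ ⊔ W₂) →* ℂˣ) → (G → ℂ))
    (hχ : IsCyclicTIFamily W₁ W₂ χ) (θ : G → ℂ) (hθ : IsClassFunction G θ)
    (hθV : ∀ w : ↥(W₁ ⊔ W₂), (w : G) ∉ W₁ → (w : G) ∉ W₂ → θ w = 0)
    (φ ψ : ↥(W₁ ⊔ W₂) →* ℂˣ)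
    (hφ : ∀ w : ↥(W₁ ⊔ W₂), (w : G) ∈ W₂ → φ w = 1)
    (hψ : ∀ w : ↥(W₁ ⊔ W₂), (w : G) ∈ W₁ → ψ w = 1) :
    classInner θ (χ (φ * ψ)) + classInner θ (χ 1) = classInner θ (χ φ) + classInner θ (χ ψ) := by
  classical
  by_cases h1 : φ = 1
  · subst h1
    have : (1 : ↥(W₁ ⊔ W₂) →* ℂˣ) * ψ = ψ := by ext w; simp
    rw [this]; ring
  by_cases h2 : ψ = 1
  · subst h2
    have : φ * (1 : ↥(W₁ ⊔ W₂) →* ℂˣ) = φ := by ext w; simp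
    rw [this]
  have hind := hχ.induced_eq φ ψ h1 h2 hφ hψ
  have hz : classInner (indFun (W₁ ⊔ W₂)
      (fun w => 1 - (φ w : ℂ) - (ψ w : ℂ) + (φ w : ℂ) * (ψ w : ℂ))) θ = 0 := by
    rw [Helper19.frobenius_reciprocity _ _ _ hθ]
    unfold classInner
    rw [Finset.sum_eq_zero, mul_zero]
    intro w _
    beta_reduce
    by_cases hw : (w : G) ∈ W₁ ∨ (w : G) ∈ W₂
    · rw [cti_alpha_zero φ ψ hφ hψ w hw, zero_mul]
    · rw [not_or] at hw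
      rw [hθV w hw.1 hw.2]; simp
  have hz' := Helper20.classInner_conj_symm (indFun (W₁ ⊔ W₂)
      (fun w => 1 - (φ w : ℂ) - (ψ w : ℂ) + (φ w : ℂ) * (ψ w : ℂ))) θ
  rw [hz, map_zero, hind] at hz'
  have he : (fun g => 1 - χ φ g - χ ψ g + χ (φ * ψ) g) = χ 1 - χ φ - χ ψ + χ (φ * ψ) := by
    funext g
    simp [hχ.map_one]
  rw [he, Helper20.classInner_add_right, Helper20.classInner_sub_right,
    Helper20.classInner_sub_right] at hz'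
  linear_combination -hz'

end

end Cfsg.Agent.Lib.Helper32
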