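import Mathlib
import Cfsg.Prelude.Def_OddOrderChar
import Cfsg.Agent.Lib.Helper32.CyclicTI2
import Cfsg.Agent.Lib.Helper32.CyclicTI4

set_option autoImplicit false

namespace Cfsg.Agent.Lib.Helper32

open Cfsg

section grid

theorem grid_trichotomy {I J : Type*} [Fintype I] [Fintype J] [DecidableEq I] [DecidableEq J]
    (r : I → ℂ) (c : J → ℂ) (hIJ : Fintype.card I + 2 ≤ Fintype.card J)
    (hfew : Nat.card {p : I × J // r p.1 + c p.2 ≠ 0} < 2 * Fintype.card I) :
    (∀ i j, r i + c j = 0) ∨ (∃ j₀ a, ∀ i j, r i + c j = if j = j₀ then a else 0) ∨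
    (∃ i₀ a, ∀ i j, r i + c j = if i = i₀ then a else 0) := by
  classical
  rw [Nat.card_eq_fintype_card] at hfew
  by_cases h0 : ∀ i j, r i + c j = 0
  · exact Or.inl h0
  push Not at h0
  obtain ⟨i₀, j₀, h00⟩ := h0
  by_cases hr : ∀ i₁ i₂, r i₁ = r i₂
  · right; left
    refine ⟨j₀, r i₀ + c j₀, ?_⟩
    intro i j
    split_ifs with hj
    · rw [hj, hr i i₀]
    · by_contra hne
      exfalso
      let f : I ⊕ I → {p : I × J // r p.1 + c p.2 ≠ 0} := fun s =>
        match s with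
        | Sum.inl i' => ⟨(i', j₀), by rw [hr i' i₀]; exact h00⟩
        | Sum.inr i' => ⟨(i', j), by rw [hr i' i]; exact hne⟩
      have hf : Function.Injective f := by
        rintro (a | a) (b | b) h
        · have := congrArg (fun p => p.1.1) h
          exact congrArg Sum.inl this
        · have := congrArg (fun p => p.1.2) h
          exact absurd this.symm hj
        · have := congrArg (fun p => p.1.2) h
          exact absurd this hj
        · have := congrArg (fun p => p.1.1) h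
          exact congrArg Sum.inr this
      have := Fintype.card_le_of_injective f hf
      rw [Fintype.card_sum] at this
      omega
  by_cases hc : ∀ j₁ j₂, c j₁ = c j₂
  · right; right
    refine ⟨i₀, r i₀ + c j₀, ?_⟩
    intro i j
    split_ifs with hi
    · rw [hi, hc j j₀]
    · by_contra hne
      exfalso
      let f : J ⊕ J → {p : I × J // r p.1 + c p.2 ≠ 0} := fun s =>
        match s with
        | Sum.inl j' => ⟨(i₀, j'), by rw [hc j' j₀]; exact h00⟩
        | Sum.inr j' => ⟨(i, j'), by rw [hc j' j]; exact hne⟩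
      have hf : Function.Injective f := by
        rintro (a | a) (b | b) h
        · have := congrArg (fun p => p.1.2) h
          exact congrArg Sum.inl this
        · have := congrArg (fun p => p.1.1) h
          exact absurd this.symm hi
        · have := congrArg (fun p => p.1.1) h
          exact absurd this hi
        · have := congrArg (fun p => p.1.2) h
          exact congrArg Sum.inr this
      have := Fintype.card_le_of_injective f hf
      rw [Fintype.card_sum] at this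
      omega
  exfalso
  push Not at hr hc
  obtain ⟨i₁, i₂, hi⟩ := hr
  obtain ⟨j₁, j₂, hj⟩ := hc
  have hu : ∀ j, ∃ i, (i = i₁ ∨ i = i₂) ∧ r i + c j ≠ 0 := by
    intro j
    by_cases h : r i₁ + c j = 0
    · refine ⟨i₂, Or.inr rfl, ?_⟩
      intro h'
      apply hi
      have := h.trans h'.symm
      exact add_right_cancel this
    · exact ⟨i₁, Or.inl rfl, h⟩
  have hv : ∀ i, ∃ j, r i + c j ≠ 0 := by
    intro i
    by_cases h : r i + c j₁ = 0
    · refine ⟨j₂, ?_⟩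
      intro h'
      apply hj
      have := h.trans h'.symm
      exact add_left_cancel this
    · exact ⟨j₁, h⟩
  choose u hu1 hu2 using hu
  choose v hv using hv
  let f : J ⊕ {i : I // i ≠ i₁ ∧ i ≠ i₂} → {p : I × J // r p.1 + c p.2 ≠ 0} := fun s =>
    match s with
    | Sum.inl j => ⟨(u j, j), hu2 j⟩
    | Sum.inr i => ⟨(i.1, v i.1), hv i.1⟩
  have hf : Function.Injective f := by
    rintro (a | a) (b | b) h
    · have := congrArg (fun p => p.1.2) h
      exact congrArg Sum.inl this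
    · have h' : u a = b.1 := congrArg (fun p => p.1.1) h
      rcases hu1 a with h1 | h1
      · exact absurd (h'.symm.trans h1) b.2.1
      · exact absurd (h'.symm.trans h1) b.2.2
    · have h' : a.1 = u b := congrArg (fun p => p.1.1) h
      rcases hu1 b with h1 | h1
      · exact absurd (h'.trans h1) a.2.1
      · exact absurd (h'.trans h1) a.2.2
    · have h' : a.1 = b.1 := congrArg (fun p => p.1.1) h
      exact congrArg Sum.inr (Subtype.ext h')
  have h1 := Fintype.card_le_of_injective f hf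
  rw [Fintype.card_sum] at h1
  have h2 : Fintype.card I - 2 ≤ Fintype.card {i : I // i ≠ i₁ ∧ i ≠ i₂} := by
    rw [Fintype.card_subtype]
    have : (Finset.univ.filter (fun i : I => i ≠ i₁ ∧ i ≠ i₂)) = Finset.univ \ {i₁, i₂} := by
      ext i; simp
    rw [this]
    have h3 := Finset.le_card_sdiff ({i₁, i₂} : Finset I) Finset.univ
    have h4 : ({i₁, i₂} : Finset I).card ≤ 2 := Finset.card_le_two
    rw [Finset.card_univ] at h3
    omega
  omega

end grid

section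
variable {G : Type*} [Group G] {W₁ W₂ : Subgroup G}

/-- the internal direct product decomposition -/
noncomputable def ctiE (hdisj : W₁ ⊓ W₂ = ⊥) (hcomm : ∀ a ∈ W₁, ∀ b ∈ W₂, a * b = b * a) :
    W₁ × W₂ ≃* ↥(W₁ ⊔ W₂) :=
  MulEquiv.ofBijective
    ((MonoidHom.noncommCoprod W₁.subtype W₂.subtype (fun a b => hcomm a a.2 b b.2)).codRestrict
      (W₁ ⊔ W₂) (fun x => mul_mem (Subgroup.mem_sup_left x.1.2) (Subgroup.mem_sup_right x.2.2)))
    (by
      constructor
      · rw [injective_iff_map_eq_one]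
        rintro ⟨a, b⟩ h
        have h1 : (a : G) * b = 1 := congrArg Subtype.val h
        have ha : (a : G) ∈ W₁ ⊓ W₂ := by
          refine Subgroup.mem_inf.mpr ⟨a.2, ?_⟩
          rw [eq_inv_of_mul_eq_one_left h1]
          exact inv_mem b.2
        rw [hdisj, Subgroup.mem_bot] at ha
        have hb : (b : G) = 1 := by simpa [ha] using h1
        ext <;> simp [ha, hb]
      · intro w
        obtain ⟨a, b, ha, hb, hab⟩ := cti_exists_factor hcomm w
        refine ⟨(⟨a, ha⟩, ⟨b, hb⟩), ?_⟩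
        rw [hab]
        rfl)

theorem ctiE_coe (hdisj : W₁ ⊓ W₂ = ⊥) (hcomm : ∀ a ∈ W₁, ∀ b ∈ W₂, a * b = b * a)
    (x : W₁ × W₂) : ((ctiE hdisj hcomm x : ↥(W₁ ⊔ W₂)) : G) = (x.1 : G) * (x.2 : G) := rfl

theorem cti_card (hdisj : W₁ ⊓ W₂ = ⊥) (hcomm : ∀ a ∈ W₁, ∀ b ∈ W₂, a * b = b * a) :
    Nat.card ↥(W₁ ⊔ W₂) = Nat.card W₁ * Nat.card W₂ := by
  rw [← Nat.card_congr (ctiE hdisj hcomm).toEquiv, Nat.card_prod]

/-- first projection -/
noncomputable def ctiP1 (hdisj : W₁ ⊓ W₂ = ⊥) (hcomm : ∀ a ∈ W₁, ∀ b ∈ W₂, a * b = b * a) :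
    ↥(W₁ ⊔ W₂) →* W₁ := (MonoidHom.fst W₁ W₂).comp (ctiE hdisj hcomm).symm.toMonoidHom

/-- second projection -/
noncomputable def ctiP2 (hdisj : W₁ ⊓ W₂ = ⊥) (hcomm : ∀ a ∈ W₁, ∀ b ∈ W₂, a * b = b * a) :
    ↥(W₁ ⊔ W₂) →* W₂ := (MonoidHom.snd W₁ W₂).comp (ctiE hdisj hcomm).symm.toMonoidHom

theorem ctiP_mul (hdisj : W₁ ⊓ W₂ = ⊥) (hcomm : ∀ a ∈ W₁, ∀ b ∈ W₂, a * b = b * a)
    (w : ↥(W₁ ⊔ W₂)) : (w : G) = (ctiP1 hdisj hcomm w : G) * (ctiP2 hdisj hcomm w : G) := by
  have := ctiE_coe hdisj hcomm ((ctiE hdisj hcomm).symm w)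
  rw [MulEquiv.apply_symm_apply] at this
  exact this

theorem ctiP_of_left (hdisj : W₁ ⊓ W₂ = ⊥) (hcomm : ∀ a ∈ W₁, ∀ b ∈ W₂, a * b = b * a)
    (w : ↥(W₁ ⊔ W₂)) (hw : (w : G) ∈ W₁) :
    ctiP1 hdisj hcomm w = ⟨w, hw⟩ ∧ ctiP2 hdisj hcomm w = 1 := by
  have : w = ctiE hdisj hcomm (⟨w, hw⟩, 1) := by
    ext; rw [ctiE_coe]; simp
  have h2 : (ctiE hdisj hcomm).symm w = (⟨w, hw⟩, 1) := by
    rw [MulEquiv.symm_apply_eq]; exact this
  constructor
  · exact congrArg Prod.fst h2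
  · exact congrArg Prod.snd h2

theorem ctiP_of_right (hdisj : W₁ ⊓ W₂ = ⊥) (hcomm : ∀ a ∈ W₁, ∀ b ∈ W₂, a * b = b * a)
    (w : ↥(W₁ ⊔ W₂)) (hw : (w : G) ∈ W₂) :
    ctiP1 hdisj hcomm w = 1 ∧ ctiP2 hdisj hcomm w = ⟨w, hw⟩ := by
  have : w = ctiE hdisj hcomm (1, ⟨w, hw⟩) := by
    ext; rw [ctiE_coe]; simp
  have h2 : (ctiE hdisj hcomm).symm w = (1, ⟨w, hw⟩) := by
    rw [MulEquiv.symm_apply_eq]; exact this
  constructor
  · exact congrArg Prod.fst h2
  · exact congrArg Prod.snd h2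

/-- the parametrisation of the linear characters of `W` by pairs -/
noncomputable def ctiB (hdisj : W₁ ⊓ W₂ = ⊥) (hcomm : ∀ a ∈ W₁, ∀ b ∈ W₂, a * b = b * a) :
    (W₁ →* ℂˣ) × (W₂ →* ℂˣ) ≃ (↥(W₁ ⊔ W₂) →* ℂˣ) where
  toFun p := p.1.comp (ctiP1 hdisj hcomm) * p.2.comp (ctiP2 hdisj hcomm)
  invFun ω := (ω.comp (Subgroup.inclusion le_sup_left), ω.comp (Subgroup.inclusion le_sup_right))
  left_inv p := by
    ext a
    · have h := ctiP_of_left hdisj hcomm (Subgroup.inclusion le_sup_left a) a.2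
      simp only [MonoidHom.comp_apply, MonoidHom.mul_apply]
      rw [h.1, h.2]
      simp
    · have h := ctiP_of_right hdisj hcomm (Subgroup.inclusion le_sup_right a) a.2
      simp only [MonoidHom.comp_apply, MonoidHom.mul_apply]
      rw [h.1, h.2]
      simp
  right_inv ω := by
    ext w
    simp only [MonoidHom.comp_apply, MonoidHom.mul_apply]
    rw [← map_mul]
    congr 2
    ext
    exact (ctiP_mul hdisj hcomm w).symm

theorem ctiB_apply (hdisj : W₁ ⊓ W₂ = ⊥) (hcomm : ∀ a ∈ W₁, ∀ b ∈ W₂, a * b = b * a)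
    (p : (W₁ →* ℂˣ) × (W₂ →* ℂˣ)) :
    ctiB hdisj hcomm p = p.1.comp (ctiP1 hdisj hcomm) * p.2.comp (ctiP2 hdisj hcomm) := rfl

theorem cti_comp_P1_trivial (hdisj : W₁ ⊓ W₂ = ⊥) (hcomm : ∀ a ∈ W₁, ∀ b ∈ W₂, a * b = b * a)
    (l : W₁ →* ℂˣ) (w : ↥(W₁ ⊔ W₂)) (hw : (w : G) ∈ W₂) :
    l.comp (ctiP1 hdisj hcomm) w = 1 := by
  rw [MonoidHom.comp_apply, (ctiP_of_right hdisj hcomm w hw).1, map_one]

theorem cti_comp_P2_trivial (hdisj : W₁ ⊓ W₂ = ⊥) (hcomm : ∀ a ∈ W₁, ∀ b ∈ W₂, a * b = b * a)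
    (l : W₂ →* ℂˣ) (w : ↥(W₁ ⊔ W₂)) (hw : (w : G) ∈ W₁) :
    l.comp (ctiP2 hdisj hcomm) w = 1 := by
  rw [MonoidHom.comp_apply, (ctiP_of_left hdisj hcomm w hw).2, map_one]

end

end Cfsg.Agent.Lib.Helper32
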