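import Mathlib
import Cfsg.Prelude.Def_OddOrderChar
import Cfsg.Prelude.Def_OddOrderLocal
import Cfsg.Agent.Lib.Helper32.CyclicTI
import Cfsg.Agent.Lib.Helper32.CyclicTI2
import Cfsg.Agent.Lib.Helper32.CyclicTI4
import Cfsg.Agent.Lib.Helper32.CyclicTI5
import Cfsg.Agent.Lib.Helper32.SignedIrr
import Cfsg.Agent.Lib.Helper79.GaloisChar

set_option autoImplicit false

namespace Cfsg.Agent.Lib.Helper32

open Cfsg

theorem exists_coprime_lift {n N x : ℕ} (hN : N ≠ 0) (h : n ∣ N) (hx : x.Coprime n) :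
    ∃ k : ℕ, k.Coprime N ∧ k ≡ x [MOD n] := by
  haveI : NeZero N := ⟨hN⟩
  obtain ⟨u, hu⟩ := ZMod.unitsMap_surjective h (ZMod.unitOfCoprime x hx)
  refine ⟨(u : ZMod N).val, ZMod.val_coe_unit_coprime u, ?_⟩
  have h1 := congrArg (fun v : (ZMod n)ˣ => (v : ZMod n)) hu
  simp only [ZMod.unitsMap_val, ZMod.coe_unitOfCoprime] at h1
  rw [← ZMod.natCast_eq_natCast_iff, ZMod.natCast_val]
  exact h1

theorem exists_not_mem_pair {I : Type*} [Fintype I] (h : 3 ≤ Fintype.card I) (x y : I) :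
    ∃ i : I, i ≠ x ∧ i ≠ y := by
  classical
  by_contra hcon
  push Not at hcon
  have : (Finset.univ : Finset I) ⊆ {x, y} := by
    intro i _
    by_cases hi : i = x
    · simp [hi]
    · simp [hcon i hi]
  have h1 := Finset.card_le_card this
  have h2 : ({x, y} : Finset I).card ≤ 2 := Finset.card_le_two
  rw [Finset.card_univ] at h1
  omega

theorem grid_two {I J : Type*} [Fintype I] [Fintype J] (hI : 3 ≤ Fintype.card I)
    (hJ : 3 ≤ Fintype.card J) (r : I → ℂ) (c : J → ℂ) (p₁ p₂ : I × J)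
    (h : ∀ i j, r i + c j ≠ 0 → (i, j) = p₁ ∨ (i, j) = p₂) : ∀ i j, r i + c j = 0 := by
  obtain ⟨i', hi1, hi2⟩ := exists_not_mem_pair hI p₁.1 p₂.1
  obtain ⟨j', hj1, hj2⟩ := exists_not_mem_pair hJ p₁.2 p₂.2
  have h1 : ∀ j, r i' + c j = 0 := by
    intro j
    by_contra hne
    rcases h i' j hne with e | e
    · exact hi1 (congrArg Prod.fst e)
    · exact hi2 (congrArg Prod.fst e)
  have h2 : ∀ i, r i + c j' = 0 := by
    intro i
    by_contra hne
    rcases h i j' hne with e | e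
    · exact hj1 (congrArg Prod.snd e)
    · exact hj2 (congrArg Prod.snd e)
  intro i j
  linear_combination h2 i + h1 j - h1 j'

section
variable {G : Type*} [Group G] [Fintype G] {W₁ W₂ : Subgroup G}

theorem signedIrr_pow_coprime {α : G → ℂ} (h : SignedIrr G α) (k : ℕ)
    (hk : k.Coprime (Nat.card G)) : SignedIrr G (fun g => α (g ^ k)) := by
  rcases h with h | h
  · exact Or.inl (Helper79.IsIrrCharacter.pow_coprime h k hk)
  · exact Or.inr (Helper79.IsIrrCharacter.pow_coprime h k hk)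

theorem signedIrr_eq_of_inner_one {α γ : G → ℂ} (hα : SignedIrr G α) (hγ : SignedIrr G γ)
    (h : classInner α γ = 1) : α = γ := by
  rcases hα.cases hγ with h0 | ⟨ε, hε, e⟩
  · rw [h0] at h; exact absurd h zero_ne_one
  · rcases hε with rfl | rfl
    · simpa using e
    · rw [e, Helper20.classInner_smul_left, hγ.inner_self] at h
      norm_num at h

theorem three_le_card_of_odd (H : Subgroup G) (h1 : H ≠ ⊥) (h2 : Odd (Nat.card H)) :
    3 ≤ Nat.card H := by
  have h3 : 1 < Nat.card H := by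
    rw [Finite.one_lt_card_iff_nontrivial]
    exact (Subgroup.nontrivial_iff_ne_bot H).2 h1
  obtain ⟨k, hk⟩ := h2
  omega

theorem cti_pow (hW : IsSelfNormalizingCyclic W₁ W₂) (hodd : Odd (Nat.card ↥(W₁ ⊔ W₂)))
    (χ : (↥(W₁ ⊔ W₂) →* ℂˣ) → (G → ℂ)) (hχ : IsCyclicTIFamily W₁ W₂ χ)
    (k : ℕ) (hk : k.Coprime (Nat.card G)) (ω : ↥(W₁ ⊔ W₂) →* ℂˣ) :
    (fun g => χ ω (g ^ k)) = χ (ω ^ k) := by
  classical
  obtain ⟨hne1, hne2, hdisj, hcomm, hcyc, -⟩ := hW
  have hA : ∀ a b : ↥(W₁ ⊔ W₂), a * b = b * a :=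
    (IsCyclic.commGroup (α := ↥(W₁ ⊔ W₂))).mul_comm
  have hA1 : ∀ a b : W₁, a * b = b * a := by
    intro a b
    have := hA (Subgroup.inclusion le_sup_left a) (Subgroup.inclusion le_sup_left b)
    ext
    exact congrArg (fun x : ↥(W₁ ⊔ W₂) => (x : G)) this
  have hA2 : ∀ a b : W₂, a * b = b * a := by
    intro a b
    have := hA (Subgroup.inclusion le_sup_right a) (Subgroup.inclusion le_sup_right b)
    ext
    exact congrArg (fun x : ↥(W₁ ⊔ W₂) => (x : G)) this
  haveI : Fintype (W₁ →* ℂˣ) := Fintype.ofFinite _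
  haveI : Fintype (W₂ →* ℂˣ) := Fintype.ofFinite _
  have c1 : Fintype.card (W₁ →* ℂˣ) = Nat.card W₁ := by
    rw [← Nat.card_eq_fintype_card]; exact card_hom_units_of_comm hA1
  have c2 : Fintype.card (W₂ →* ℂˣ) = Nat.card W₂ := by
    rw [← Nat.card_eq_fintype_card]; exact card_hom_units_of_comm hA2
  rw [cti_card hdisj hcomm, Nat.odd_mul] at hodd
  have hI : 3 ≤ Fintype.card (W₁ →* ℂˣ) := c1 ▸ three_le_card_of_odd W₁ hne1 hodd.1
  have hJ : 3 ≤ Fintype.card (W₂ →* ℂˣ) := c2 ▸ three_le_card_of_odd W₂ hne2 hodd.2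
  have hs : ∀ ω', SignedIrr G (χ ω') := hχ.irr_or_neg
  have hX : SignedIrr G (fun g => χ ω (g ^ k)) := signedIrr_pow_coprime (hs ω) k hk
  set X : G → ℂ := fun g => χ ω (g ^ k) with hXdef
  have hθ : IsClassFunction G (X - χ (ω ^ k)) := by
    intro g x
    have h1 := genChar_isClassFunction hX.genChar g x
    have h2 := genChar_isClassFunction (hs (ω ^ k)).genChar g x
    simp only [Pi.sub_apply, h1, h2]
  have hmem : ∀ (H : Subgroup G) (w : G), w ^ k ∈ H → w ∈ H := by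
    intro H w hw
    have hc : k.Coprime (orderOf w) := hk.coprime_dvd_right (orderOf_dvd_natCard w)
    obtain ⟨m, hm⟩ := exists_pow_eq_self_of_coprime hc
    rw [← hm]
    exact pow_mem hw m
  have hθV : ∀ w : ↥(W₁ ⊔ W₂), (w : G) ∉ W₁ → (w : G) ∉ W₂ → (X - χ (ω ^ k)) w = 0 := by
    intro w h1 h2
    have e1 := hχ.eq_on ω (w ^ k) (fun h => h1 (hmem W₁ w (by simpa using h)))
      (fun h => h2 (hmem W₂ w (by simpa using h)))
    have e2 := hχ.eq_on (ω ^ k) w h1 h2
    simp only [Pi.sub_apply, hXdef]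
    rw [e2]
    have e3 : (((w ^ k : ↥(W₁ ⊔ W₂)) : G)) = (w : G) ^ k := by simp
    rw [e3] at e1
    rw [e1]
    simp
  have hadd : ∀ p : (W₁ →* ℂˣ) × (W₂ →* ℂˣ),
      classInner (X - χ (ω ^ k)) (χ (ctiB hdisj hcomm p)) =
      (classInner (X - χ (ω ^ k)) (χ (p.1.comp (ctiP1 hdisj hcomm)))
        - classInner (X - χ (ω ^ k)) (χ 1))
      + classInner (X - χ (ω ^ k)) (χ (p.2.comp (ctiP2 hdisj hcomm))) := by
    intro p
    have := cti_additive χ hχ (X - χ (ω ^ k)) hθ hθV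
      (p.1.comp (ctiP1 hdisj hcomm)) (p.2.comp (ctiP2 hdisj hcomm))
      (cti_comp_P1_trivial hdisj hcomm p.1) (cti_comp_P2_trivial hdisj hcomm p.2)
    rw [ctiB_apply]
    linear_combination this
  have hval : ∀ ω', classInner (X - χ (ω ^ k)) (χ ω') =
      classInner X (χ ω') - if ω ^ k = ω' then 1 else 0 := by
    intro ω'
    rw [Helper20.classInner_sub_left, hχ.orthonormal]
    congr
  obtain ⟨ω₀, hω₀⟩ : ∃ ω₀, ∀ ω', classInner X (χ ω') ≠ 0 → ω' = ω₀ := by
    by_cases hex : ∃ ω₀, classInner X (χ ω₀) ≠ 0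
    · obtain ⟨ω₀, h0⟩ := hex
      refine ⟨ω₀, ?_⟩
      intro ω' h'
      rcases hX.cases (hs ω₀) with e | ⟨ε, hε, e⟩
      · exact absurd e h0
      · rw [e, Helper20.classInner_smul_left, hχ.orthonormal] at h'
        by_contra hne
        rw [if_neg (fun h => hne h.symm), mul_zero] at h'
        exact h' rfl
    · push Not at hex
      exact ⟨1, fun ω' h' => absurd (hex ω') h'⟩
  have hz := grid_two hI hJ
    (fun l : W₁ →* ℂˣ => classInner (X - χ (ω ^ k)) (χ (l.comp (ctiP1 hdisj hcomm)))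
        - classInner (X - χ (ω ^ k)) (χ 1))
    (fun l : W₂ →* ℂˣ => classInner (X - χ (ω ^ k)) (χ (l.comp (ctiP2 hdisj hcomm))))
    ((ctiB hdisj hcomm).symm (ω ^ k)) ((ctiB hdisj hcomm).symm ω₀) (by
      intro i j hne
      have h1 := hadd (i, j)
      simp only at h1 hne
      rw [← h1, hval] at hne
      by_cases e : ω ^ k = ctiB hdisj hcomm (i, j)
      · left
        rw [e, Equiv.symm_apply_apply]
      · right
        rw [if_neg e, sub_zero] at hne
        rw [← hω₀ _ hne, Equiv.symm_apply_apply])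
  have hfin : classInner (X - χ (ω ^ k)) (χ (ω ^ k)) = 0 := by
    obtain ⟨p, hp⟩ := (ctiB hdisj hcomm).surjective (ω ^ k)
    have h1 := hadd p
    rw [hp] at h1
    rw [h1]
    exact hz p.1 p.2
  rw [hval, if_pos rfl, sub_eq_zero] at hfin
  exact signedIrr_eq_of_inner_one hX (hs _) hfin

end

end Cfsg.Agent.Lib.Helper32
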