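import Cfsg.Agent.Lib.Helper32.Dade
import Mathlib.Algebra.BigOperators.Finprod
import Mathlib.Algebra.BigOperators.Ring.Finset

set_option autoImplicit false

namespace Cfsg.Agent.Lib.Helper32

open Cfsg
open scoped Pointwise

variable {G : Type*} [Group G]
variable {A : Set G} {L : Subgroup G} {H : G → Subgroup G}

/-- the support of the Dade map -/
def dadeSupp (A : Set G) (L : Subgroup G) (H : G → Subgroup G) : Set G :=
  {g | ∃ a : ↥L, (a : G) ∈ A ∧ ∃ x : G, ∃ u ∈ H (a : G), x * g * x⁻¹ = (a : G) * u}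

theorem dade_conj_mem' (hD : DadeHypothesis A L H) {a y u : G} (ha : a ∈ A)
    (hy : y * a * y⁻¹ ∈ A) (hu : u ∈ H a) : y * u * y⁻¹ ∈ H (y * a * y⁻¹) := by
  obtain ⟨l, hl, e⟩ := hD.fusion a ha y hy
  have hc : l⁻¹ * y ∈ Subgroup.centralizer ({a} : Set G) := by
    rw [Subgroup.mem_centralizer_singleton_iff]
    calc l⁻¹ * y * a = l⁻¹ * (y * a * y⁻¹) * y := by group
      _ = l⁻¹ * (l * a * l⁻¹) * y := by rw [e]
      _ = a * (l⁻¹ * y) := by group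
  have h1 := hD.conj_mem_H a ha _ hc u hu
  have h2 := dade_conj_mem hD ha hl h1
  rw [e] at h2
  convert h2 using 1
  group

theorem dade_card_H_conj' (hD : DadeHypothesis A L H) {a y : G} (ha : a ∈ A)
    (hy : y * a * y⁻¹ ∈ A) : Nat.card (H (y * a * y⁻¹)) = Nat.card (H a) := by
  obtain ⟨l, hl, e⟩ := hD.fusion a ha y hy
  rw [← e]
  exact dade_card_H_conj hD ha hl

theorem dade_cond_iff [Finite G] (hD : DadeHypothesis A L H) {a₀ u₀ : G} (ha₀ : a₀ ∈ A)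
    (hu₀ : u₀ ∈ H a₀) (y a : G) :
    (a ∈ A ∧ a⁻¹ * (y * (a₀ * u₀) * y⁻¹) ∈ H a) ↔ (a = y * a₀ * y⁻¹ ∧ y * a₀ * y⁻¹ ∈ A) := by
  constructor
  · rintro ⟨ha, hu⟩
    have := dade_key hD ha₀ ha hu₀ hu (g := y) (by group)
    exact ⟨this.symm, this ▸ ha⟩
  · rintro ⟨rfl, hy⟩
    refine ⟨hy, ?_⟩
    convert dade_conj_mem' hD ha₀ hy hu₀ using 1
    group

theorem dade_count_conj [Finite G] (hD : DadeHypothesis A L H) {a₀ : G} (ha₀ : a₀ ∈ A) :
    Nat.card {y : G // y * a₀ * y⁻¹ ∈ A} = Nat.card L * Nat.card (H a₀) := by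
  rw [← Nat.card_prod]
  apply Nat.card_congr
  symm
  have hconj : ∀ (l h : G), h ∈ H a₀ → (l * h) * a₀ * (l * h)⁻¹ = l * a₀ * l⁻¹ := by
    intro l h hh
    have := (dade_commute hD ha₀ hh).eq
    calc (l * h) * a₀ * (l * h)⁻¹ = l * (h * a₀) * h⁻¹ * l⁻¹ := by group
      _ = l * (a₀ * h) * h⁻¹ * l⁻¹ := by rw [this]
      _ = l * a₀ * l⁻¹ := by group
  refine Equiv.ofBijective (fun p : L × H a₀ => ⟨(p.1 : G) * p.2, ?_⟩) ⟨?_, ?_⟩
  · rw [hconj _ _ p.2.2]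
    exact hD.conj_mem _ p.1.2 _ ha₀
  · rintro ⟨⟨l, hl⟩, ⟨h, hh⟩⟩ ⟨⟨l', hl'⟩, ⟨h', hh'⟩⟩ e
    simp only [Subtype.mk.injEq] at e
    have e1 : l'⁻¹ * l = h' * h⁻¹ := by
      calc l'⁻¹ * l = l'⁻¹ * (l * h) * h⁻¹ := by group
        _ = l'⁻¹ * (l' * h') * h⁻¹ := by rw [e]
        _ = h' * h⁻¹ := by group
    have hm : h' * h⁻¹ ∈ H a₀ := (H a₀).mul_mem hh' ((H a₀).inv_mem hh)
    have e2 : h' * h⁻¹ ∈ H a₀ ⊓ (L ⊓ Subgroup.centralizer ({a₀} : Set G)) :=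
      ⟨hm, e1 ▸ L.mul_mem (L.inv_mem hl') hl, hD.le_centralizer a₀ ha₀ hm⟩
    rw [hD.inf_eq_bot a₀ ha₀, Subgroup.mem_bot] at e2
    have e3 : h' = h := by rwa [mul_inv_eq_one] at e2
    subst e3
    have e4 : l = l' := mul_right_cancel e
    subst e4
    rfl
  · rintro ⟨y, hy⟩
    obtain ⟨l, hl, e⟩ := hD.fusion a₀ ha₀ y hy
    have hc : l⁻¹ * y ∈ Subgroup.centralizer ({a₀} : Set G) := by
      rw [Subgroup.mem_centralizer_singleton_iff]
      calc l⁻¹ * y * a₀ = l⁻¹ * (y * a₀ * y⁻¹) * y := by group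
        _ = l⁻¹ * (l * a₀ * l⁻¹) * y := by rw [e]
        _ = a₀ * (l⁻¹ * y) := by group
    obtain ⟨c, hc', h, hh, e'⟩ := dade_decomp' hD ha₀ hc
    refine ⟨(⟨l * c, L.mul_mem hl hc'.1⟩, ⟨h, hh⟩), ?_⟩
    simp only [Subtype.mk.injEq]
    rw [mul_assoc, ← e']; group

theorem dadeIsometry_apply [Finite G] (hD : DadeHypothesis A L H) (α : L → ℂ)
    (hα : IsClassFunction L α) {g x u : G} {a : L} (ha : (a : G) ∈ A) (hu : u ∈ H a)
    (h : x * g * x⁻¹ = a * u) : dadeIsometry A L H α g = α a := by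
  have hex : ∃ a : ↥L, (a : G) ∈ A ∧ ∃ x : G, ∃ u ∈ H (a : G), x * g * x⁻¹ = (a : G) * u :=
    ⟨a, ha, x, u, hu, h⟩
  unfold dadeIsometry
  rw [dif_pos hex]
  obtain ⟨ha', x', u', hu', h'⟩ := Classical.choose_spec hex
  set a' := Classical.choose hex
  have e : (x * x'⁻¹) * (a' * u') * (x * x'⁻¹)⁻¹ = a * u := by
    rw [← h', ← h]; group
  have e1 := dade_key hD ha' ha hu' hu e
  obtain ⟨l, hl, e2⟩ := hD.fusion a' ha' _ (e1 ▸ ha)
  have e3 : a = (⟨l, hl⟩ : L) * a' * (⟨l, hl⟩ : L)⁻¹ := by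
    apply Subtype.ext
    simp only [Subgroup.coe_mul, Subgroup.coe_inv]
    rw [e2, e1]
  rw [e3, hα]

theorem dadeIsometry_apply_not_mem (α : L → ℂ) {g : G} (h : g ∉ dadeSupp A L H) :
    dadeIsometry A L H α g = 0 := by
  unfold dadeIsometry
  exact dif_neg h

theorem dadeSupp_conj {g : G} (y : G) : y * g * y⁻¹ ∈ dadeSupp A L H ↔ g ∈ dadeSupp A L H := by
  constructor
  · rintro ⟨a, ha, x, u, hu, h⟩
    exact ⟨a, ha, x * y, u, hu, by rw [← h]; group⟩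
  · rintro ⟨a, ha, x, u, hu, h⟩
    exact ⟨a, ha, x * y⁻¹, u, hu, by rw [← h]; group⟩

theorem dadeIsometry_isClassFunction [Finite G] (hD : DadeHypothesis A L H) (α : L → ℂ)
    (hα : IsClassFunction L α) : IsClassFunction G (dadeIsometry A L H α) := by
  intro g y
  by_cases hg : g ∈ dadeSupp A L H
  · obtain ⟨a, ha, x, u, hu, h⟩ := hg
    rw [dadeIsometry_apply hD α hα ha hu h,
      dadeIsometry_apply hD α hα ha hu (x := x * y⁻¹) (g := y * g * y⁻¹) (by rw [← h]; group)]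
  · rw [dadeIsometry_apply_not_mem α hg,
      dadeIsometry_apply_not_mem α (fun h => hg ((dadeSupp_conj y).1 h))]

open Classical in
theorem dade_weight [Fintype G] [Fintype L] (hD : DadeHypothesis A L H) {g : G}
    (hg : g ∈ dadeSupp A L H) :
    ∑ x : G, ∑ a : L, (if ((a : G) ∈ A ∧ (a : G)⁻¹ * (x * g * x⁻¹) ∈ H a) then
      ((Nat.card L : ℂ) * (Nat.card (H a) : ℂ))⁻¹ else 0) = 1 := by
  obtain ⟨a₀, ha₀, x₀, u₀, hu₀, h₀⟩ := hg
  rw [← Equiv.sum_comp (Equiv.mulRight x₀)]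
  have inner : ∀ y : G, ∑ a : L, (if ((a : G) ∈ A ∧
      (a : G)⁻¹ * ((Equiv.mulRight x₀ y) * g * (Equiv.mulRight x₀ y)⁻¹) ∈ H a) then
      ((Nat.card L : ℂ) * (Nat.card (H a) : ℂ))⁻¹ else 0) =
      if y * a₀ * y⁻¹ ∈ A then ((Nat.card L : ℂ) * (Nat.card (H a₀) : ℂ))⁻¹ else 0 := by
    intro y
    have e : (Equiv.mulRight x₀ y) * g * (Equiv.mulRight x₀ y)⁻¹ = y * (a₀ * u₀) * y⁻¹ := by
      rw [← h₀]; simp only [Equiv.coe_mulRight]; group
    rw [e]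
    simp_rw [dade_cond_iff hD ha₀ hu₀ y]
    by_cases hy : y * a₀ * y⁻¹ ∈ A
    · rw [if_pos hy]
      rw [Finset.sum_eq_single (⟨y * a₀ * y⁻¹, hD.subset hy⟩ : L)]
      · rw [if_pos ⟨rfl, hy⟩, dade_card_H_conj' hD ha₀ hy]
      · intro b _ hb
        rw [if_neg]
        rintro ⟨h1, _⟩
        exact hb (Subtype.ext h1)
      · intro h; exact absurd (Finset.mem_univ _) h
    · rw [if_neg hy]
      apply Finset.sum_eq_zero
      intro b _
      rw [if_neg]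
      rintro ⟨_, h2⟩
      exact hy h2
  simp_rw [inner]
  rw [← Finset.sum_filter, Finset.sum_const, nsmul_eq_mul]
  have hc : (Finset.univ.filter (fun y : G => y * a₀ * y⁻¹ ∈ A)).card =
      Nat.card L * Nat.card (H a₀) := by
    rw [← dade_count_conj hD ha₀, Nat.card_eq_fintype_card, Fintype.card_subtype]
  rw [hc]
  have h1 : (Nat.card L : ℂ) ≠ 0 := by
    exact_mod_cast (Nat.card_pos (α := L)).ne'
  have h2 : (Nat.card (H a₀) : ℂ) ≠ 0 := by
    exact_mod_cast (Nat.card_pos (α := H a₀)).ne'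
  push_cast
  field_simp

open Classical in
theorem dade_weight_not_mem [Fintype G] [Fintype L] {g : G}
    (hg : g ∉ dadeSupp A L H) :
    ∑ x : G, ∑ a : L, (if ((a : G) ∈ A ∧ (a : G)⁻¹ * (x * g * x⁻¹) ∈ H a) then
      ((Nat.card L : ℂ) * (Nat.card (H a) : ℂ))⁻¹ else 0) = 0 := by
  apply Finset.sum_eq_zero
  intro x _
  apply Finset.sum_eq_zero
  intro a _
  rw [if_neg]
  rintro ⟨h1, h2⟩
  exact hg ⟨a, h1, x, _, h2, by group⟩

open Classical in
theorem dade_sum [Fintype G] [Fintype L] (hD : DadeHypothesis A L H) (F : G → ℂ)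
    (hF : IsClassFunction G F) :
    ∑ g : G, (if g ∈ dadeSupp A L H then F g else 0) =
      (Nat.card G : ℂ) * (Nat.card L : ℂ)⁻¹ * ∑ a : L, (if (a : G) ∈ A then
        (Nat.card (H a) : ℂ)⁻¹ * ∑ u : G, (if u ∈ H a then F (a * u) else 0) else 0) := by
  have step1 : ∀ g : G, (if g ∈ dadeSupp A L H then F g else 0) =
      ∑ x : G, ∑ a : L, (if ((a : G) ∈ A ∧ (a : G)⁻¹ * (x * g * x⁻¹) ∈ H a) then
      ((Nat.card L : ℂ) * (Nat.card (H a) : ℂ))⁻¹ * F g else 0) := by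
    intro g
    have : ∀ (x : G) (a : L), (if ((a : G) ∈ A ∧ (a : G)⁻¹ * (x * g * x⁻¹) ∈ H a) then
      ((Nat.card L : ℂ) * (Nat.card (H a) : ℂ))⁻¹ * F g else 0) =
      (if ((a : G) ∈ A ∧ (a : G)⁻¹ * (x * g * x⁻¹) ∈ H a) then
      ((Nat.card L : ℂ) * (Nat.card (H a) : ℂ))⁻¹ else 0) * F g := by
      intro x a; split_ifs <;> simp
    simp_rw [this, ← Finset.sum_mul]
    by_cases hg : g ∈ dadeSupp A L H
    · rw [if_pos hg, dade_weight hD hg, one_mul]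
    · rw [if_neg hg, dade_weight_not_mem hg, zero_mul]
  simp_rw [step1]
  rw [Finset.sum_comm]
  have step2 : ∀ x : G, ∑ g : G, ∑ a : L,
      (if ((a : G) ∈ A ∧ (a : G)⁻¹ * (x * g * x⁻¹) ∈ H a) then
      ((Nat.card L : ℂ) * (Nat.card (H a) : ℂ))⁻¹ * F g else 0) =
      (Nat.card L : ℂ)⁻¹ * ∑ a : L, (if (a : G) ∈ A then
        (Nat.card (H a) : ℂ)⁻¹ * ∑ u : G, (if u ∈ H a then F (a * u) else 0) else 0) := by
    intro x
    rw [Finset.sum_comm, Finset.mul_sum]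
    apply Finset.sum_congr rfl
    intro a _
    by_cases ha : (a : G) ∈ A
    · simp only [ha, true_and, if_true]
      rw [Finset.mul_sum, Finset.mul_sum]
      let e : G ≃ G := (Equiv.mulLeft (a : G)).trans (MulAut.conj x⁻¹).toEquiv
      rw [← Equiv.sum_comp e]
      apply Finset.sum_congr rfl
      intro u _
      have e1 : (a : G)⁻¹ * (x * e u * x⁻¹) = u := by
        simp only [e, Equiv.trans_apply, Equiv.coe_mulLeft, MulEquiv.toEquiv_eq_coe,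
          MulEquiv.coe_toEquiv, MulAut.conj_apply]
        group
      have e2 : F (e u) = F (a * u) := by
        simp only [e, Equiv.trans_apply, Equiv.coe_mulLeft, MulEquiv.toEquiv_eq_coe,
          MulEquiv.coe_toEquiv, MulAut.conj_apply]
        exact hF _ _
      rw [e1, e2]
      split_ifs
      · rw [mul_inv]; ring
      · simp
    · simp [ha]
  simp_rw [step2]
  rw [Finset.sum_const, nsmul_eq_mul, Finset.card_univ, ← Nat.card_eq_fintype_card]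
  ring

end Cfsg.Agent.Lib.Helper32
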